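import Mathlib

/-!
# The counting lemma behind the Vaughan-Lee bound

`V` is a finite vector space over `ZMod p`, and each `x : V` comes with a subspace `K x` containing
`x`. Suppose every nonzero functional `β` has a subspace `P < ker β` containing each `x ∈ ker β` with
`K x ≰ ker β`. Then no hyperplane contains all `x` with `dim K x ≤ 1`.
-/

set_option autoImplicit false

namespace Cfsg.Agent.Lib.VaughanLee.Counting

open Module

variable {p : ℕ} [hp : Fact p.Prime] {V : Type*} [AddCommGroup V] [Module (ZMod p) V] [Finite V]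

theorem card_sub (W : Submodule (ZMod p) V) : Nat.card W = p ^ finrank (ZMod p) W := by
  rw [Module.natCard_eq_pow_finrank (K := ZMod p), Nat.card_zmod]

omit [Finite V] in
theorem ncard_sub (W : Submodule (ZMod p) V) : (W : Set V).ncard = Nat.card W := by
  rw [← Nat.card_coe_set_eq]; rfl

theorem card_total : Nat.card V = p ^ finrank (ZMod p) V := by
  rw [Module.natCard_eq_pow_finrank (K := ZMod p), Nat.card_zmod]

omit [Finite V] in
theorem finite_dual [Finite V] : Finite (Dual (ZMod p) V) := by
  haveI : Module.Finite (ZMod p) V := Module.Finite.of_finite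
  exact Module.finite_of_finite (ZMod p)

theorem card_ann (W : Submodule (ZMod p) V) :
    Nat.card W.dualAnnihilator = p ^ (finrank (ZMod p) V - finrank (ZMod p) W) := by
  haveI : Module.Finite (ZMod p) V := Module.Finite.of_finite
  haveI : Finite (Dual (ZMod p) V) := finite_dual
  rw [Module.natCard_eq_pow_finrank (K := ZMod p), Nat.card_zmod]
  have := Subspace.finrank_add_finrank_dualAnnihilator_eq W
  congr 1
  omega

theorem card_dual : Nat.card (Dual (ZMod p) V) = p ^ finrank (ZMod p) V := by
  haveI : Module.Finite (ZMod p) V := Module.Finite.of_finite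
  haveI : Finite (Dual (ZMod p) V) := finite_dual
  rw [Module.natCard_eq_pow_finrank (K := ZMod p), Nat.card_zmod, Subspace.dual_finrank_eq]

theorem finrank_ker_add_one (α : Dual (ZMod p) V) (hα : α ≠ 0) :
    finrank (ZMod p) (LinearMap.ker α) + 1 = finrank (ZMod p) V := by
  haveI : Module.Finite (ZMod p) V := Module.Finite.of_finite
  have h := LinearMap.finrank_range_add_finrank_ker α
  have h1 : LinearMap.range α = ⊤ := by
    apply LinearMap.range_eq_top.mpr
    obtain ⟨v, hv⟩ : ∃ v, α v ≠ 0 := by
      by_contra hc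
      push_neg at hc
      exact hα (LinearMap.ext hc)
    intro c
    exact ⟨(c / α v) • v, by simp [hv]⟩
  rw [h1, finrank_top, finrank_self] at h
  omega

/-- A subspace `P` and a functional `α`: at most a `(p-1)/p` proportion of `P` lies off `ker α`. -/
theorem mul_card_off_le (P : Submodule (ZMod p) V) (α : Dual (ZMod p) V) {a : ℕ}
    (hPa : Nat.card P ≤ a) :
    p * {x : V | x ∈ P ∧ α x ≠ 0}.ncard ≤ (p - 1) * a := by
  classical
  haveI : Module.Finite (ZMod p) V := Module.Finite.of_finite
  have hp1 : 1 ≤ p := hp.out.one_lt.le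
  by_cases hall : ∀ x ∈ P, α x = 0
  · have : {x : V | x ∈ P ∧ α x ≠ 0} = ∅ := by
      ext x
      simp only [Set.mem_ofPred_eq, Set.mem_empty_iff_false, iff_false, not_and, not_not]
      exact hall x
    rw [this]
    simp
  push_neg at hall
  obtain ⟨y, hyP, hy⟩ := hall
  set Q : Submodule (ZMod p) V := P ⊓ LinearMap.ker α with hQ
  have hle : P ≤ Q ⊔ Submodule.span (ZMod p) {y} := by
    intro z hz
    have h1 : z - (α z / α y) • y ∈ Q := by
      refine ⟨P.sub_mem hz (P.smul_mem _ hyP), ?_⟩
      simp [hy]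
    have h2 : (α z / α y) • y ∈ Submodule.span (ZMod p) {y} :=
      Submodule.smul_mem _ _ (Submodule.mem_span_singleton_self y)
    have h3 := Submodule.add_mem_sup h1 h2
    simpa using h3
  have hfr : finrank (ZMod p) P ≤ finrank (ZMod p) Q + 1 := by
    have h1 := Submodule.finrank_mono hle
    have h2 := Submodule.finrank_add_le_finrank_add_finrank Q (Submodule.span (ZMod p) {y})
    have h3 : finrank (ZMod p) (Submodule.span (ZMod p) {y}) ≤ 1 := by
      have := finrank_span_le_card (R := ZMod p) ({y} : Set V)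
      simpa using this
    omega
  have hcQ : Nat.card P ≤ p * Nat.card Q := by
    rw [card_sub, card_sub, ← pow_succ']
    exact Nat.pow_le_pow_right hp.out.pos hfr
  have hset : {x : V | x ∈ P ∧ α x ≠ 0} = (P : Set V) \ (Q : Set V) := by
    ext x
    simp only [hQ, Set.mem_ofPred_eq, Set.mem_sdiff, SetLike.mem_coe, Submodule.mem_inf,
      LinearMap.mem_ker, not_and]
    constructor
    · rintro ⟨h1, h2⟩
      exact ⟨h1, fun _ => h2⟩
    · rintro ⟨h1, h2⟩
      exact ⟨h1, h2 h1⟩
  have hQP : (Q : Set V) ⊆ P := fun x hx => hx.1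
  have hcard : {x : V | x ∈ P ∧ α x ≠ 0}.ncard = Nat.card P - Nat.card Q := by
    rw [hset, Set.ncard_sdiff hQP (Set.toFinite _), ncard_sub, ncard_sub]
  rw [hcard]
  have hQle : Nat.card Q ≤ Nat.card P := by
    rw [← ncard_sub, ← ncard_sub]
    exact Set.ncard_le_ncard hQP (Set.toFinite _)
  obtain ⟨q, rfl⟩ : ∃ q, p = q + 1 := ⟨p - 1, by omega⟩
  simp only [Nat.add_sub_cancel]
  zify [hQle]
  have h1 : (Nat.card P : ℤ) ≤ (q + 1) * Nat.card Q := by exact_mod_cast hcQ
  have h2 : (Nat.card P : ℤ) ≤ a := by exact_mod_cast hPa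
  have h3 : (0 : ℤ) ≤ q := by positivity
  nlinarith

/-- The counting lemma. -/
theorem exists_small (K : V → Submodule (ZMod p) V)
    (hP : ∀ β : Dual (ZMod p) V, β ≠ 0 → ∃ P : Submodule (ZMod p) V, P < LinearMap.ker β ∧
      ∀ x ∈ LinearMap.ker β, ¬ K x ≤ LinearMap.ker β → x ∈ P)
    (α : Dual (ZMod p) V) (hα : α ≠ 0) :
    ∃ x, α x ≠ 0 ∧ finrank (ZMod p) (K x) ≤ 1 := by
  classical
  haveI : Module.Finite (ZMod p) V := Module.Finite.of_finite
  haveI : Finite (Dual (ZMod p) V) := finite_dual
  letI : Fintype V := Fintype.ofFinite V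
  letI : Fintype (Dual (ZMod p) V) := Fintype.ofFinite _
  by_contra hcon
  push_neg at hcon
  have hp1 : 1 < p := hp.out.one_lt
  obtain ⟨x₀, hx₀⟩ : ∃ v, α v ≠ 0 := by
    by_contra hc
    push_neg at hc
    exact hα (LinearMap.ext hc)
  have h2 : 2 ≤ finrank (ZMod p) V := by
    have h3 := hcon x₀ hx₀
    have h4 := Submodule.finrank_le (K x₀)
    omega
  obtain ⟨m, hm⟩ : ∃ m, finrank (ZMod p) V = m + 2 := ⟨finrank (ZMod p) V - 2, by omega⟩
  set a := p ^ m with ha
  have hapos : 0 < a := pow_pos hp.out.pos m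
  let r : V → Dual (ZMod p) V → Prop := fun x β =>
    α x ≠ 0 ∧ β x = 0 ∧ ¬ K x ≤ LinearMap.ker β
  -- lower bound for fixed `x`
  have hlow : ∀ x, α x ≠ 0 → p * a ≤ {β | r x β}.ncard + a := by
    intro x hx
    have hx0 : x ≠ 0 := by
      rintro rfl
      simp at hx
    set A1 := (Submodule.span (ZMod p) {x}).dualAnnihilator with hA1
    set A2 := (K x).dualAnnihilator with hA2
    have hsub : (A1 : Set (Dual (ZMod p) V)) ⊆ {β | r x β} ∪ (A2 : Set (Dual (ZMod p) V)) := by
      intro β hβ
      have hβx : β x = 0 := by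
        have := (Submodule.mem_dualAnnihilator β).mp hβ x (Submodule.mem_span_singleton_self x)
        exact this
      by_cases h : K x ≤ LinearMap.ker β
      · right
        show β ∈ A2
        rw [hA2, Submodule.mem_dualAnnihilator]
        intro w hw
        exact h hw
      · left
        exact ⟨hx, hβx, h⟩
    have hc1 : Nat.card A1 = p * a := by
      rw [hA1, card_ann, finrank_span_singleton hx0, hm, ha, ← pow_succ']
      congr 1
    have hc2 : Nat.card A2 ≤ a := by
      rw [hA2, card_ann, hm, ha]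
      apply Nat.pow_le_pow_right hp.out.pos
      have := hcon x hx
      omega
    have h3 := Set.ncard_le_ncard hsub (Set.toFinite _)
    have h4 := Set.ncard_union_le {β | r x β} (A2 : Set (Dual (ZMod p) V))
    have h5 : (A1 : Set (Dual (ZMod p) V)).ncard = Nat.card A1 := by
      rw [← Nat.card_coe_set_eq]; rfl
    have h6 : (A2 : Set (Dual (ZMod p) V)).ncard = Nat.card A2 := by
      rw [← Nat.card_coe_set_eq]; rfl
    omega
  -- upper bound for fixed `β`
  have hup : ∀ β : Dual (ZMod p) V, β ≠ 0 → p * {x | r x β}.ncard ≤ (p - 1) * a := by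
    intro β hβ
    obtain ⟨P, hPlt, hPmem⟩ := hP β hβ
    have hfr : finrank (ZMod p) P ≤ m := by
      have h1 := Submodule.finrank_lt_finrank_of_lt hPlt
      have h2 := finrank_ker_add_one β hβ
      omega
    have hcP : Nat.card P ≤ a := by
      rw [card_sub, ha]
      exact Nat.pow_le_pow_right hp.out.pos hfr
    have h1 := mul_card_off_le P α hcP
    have h2 : {x | r x β} ⊆ {x : V | x ∈ P ∧ α x ≠ 0} := by
      rintro x ⟨h3, h4, h5⟩
      exact ⟨hPmem x h4 h5, h3⟩
    have h3 := Set.ncard_le_ncard h2 (Set.toFinite _)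
    calc p * {x | r x β}.ncard ≤ p * {x : V | x ∈ P ∧ α x ≠ 0}.ncard :=
          Nat.mul_le_mul_left _ h3
      _ ≤ _ := h1
  have hzero : {x | r x (0 : Dual (ZMod p) V)} = ∅ := by
    ext x
    simp only [r, Set.mem_ofPred_eq, Set.mem_empty_iff_false, iff_false, not_and, not_not]
    intro _ _ w _
    simp
  -- number of points off `ker α`
  have hoff : {x : V | α x ≠ 0}.ncard = p ^ 2 * a - p * a := by
    have h1 : {x : V | α x ≠ 0} = Set.univ \ (LinearMap.ker α : Set V) := by
      ext x
      simp
    rw [h1, Set.ncard_sdiff (Set.subset_univ _) (Set.toFinite _), Set.ncard_univ,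
      card_total (p := p), hm, ncard_sub, card_sub]
    have h3 := finrank_ker_add_one α hα
    have h4 : finrank (ZMod p) (LinearMap.ker α) = m + 1 := by omega
    rw [h4, ha]
    congr 1
    · ring
    · ring
  -- double count
  have hdc : ∑ x : V, {β | r x β}.ncard = ∑ β : Dual (ZMod p) V, {x | r x β}.ncard := by
    have h1 := Finset.sum_card_bipartiteAbove_eq_sum_card_bipartiteBelow (s := (Finset.univ : Finset V))
      (t := (Finset.univ : Finset (Dual (ZMod p) V))) r
    have h2 : ∀ x : V, {β | r x β}.ncard = (Finset.bipartiteAbove r Finset.univ x).card := by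
      intro x
      rw [← Set.ncard_coe_finset]
      congr 1
      ext β
      simp [Finset.bipartiteAbove]
    have h3 : ∀ β : Dual (ZMod p) V, {x | r x β}.ncard = (Finset.bipartiteBelow r Finset.univ β).card := by
      intro β
      rw [← Set.ncard_coe_finset]
      congr 1
      ext x
      simp [Finset.bipartiteBelow]
    simp_rw [h2, h3]
    exact h1
  obtain ⟨q, hq⟩ : ∃ q, p = q + 1 := ⟨p - 1, by omega⟩
  have hq1 : 1 ≤ q := by omega
  have hpsub : p - 1 = q := by omega
  -- lower bound of the total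
  have hL : (p ^ 2 * a - p * a) * (q * a) ≤ ∑ x : V, {β | r x β}.ncard := by
    have h1 : ∀ x ∈ (Finset.univ.filter fun x : V => α x ≠ 0), q * a ≤ {β | r x β}.ncard := by
      intro x hx
      have h2 := hlow x (by simpa using hx)
      have h3 : p * a = q * a + a := by rw [hq]; ring
      omega
    have h2 := Finset.card_nsmul_le_sum _ _ _ h1
    have h3 : (Finset.univ.filter fun x : V => α x ≠ 0).card = p ^ 2 * a - p * a := by
      rw [← hoff, ← Set.ncard_coe_finset]
      congr 1
      ext x
      simp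
    rw [h3, smul_eq_mul] at h2
    calc _ ≤ _ := h2
      _ ≤ _ := Finset.sum_le_sum_of_subset_of_nonneg (Finset.filter_subset _ _) (fun _ _ _ => Nat.zero_le _)
  -- upper bound of the total
  have hU : p * ∑ β : Dual (ZMod p) V, {x | r x β}.ncard ≤ (p ^ 2 * a - 1) * (q * a) := by
    rw [Finset.mul_sum]
    have h0 : (0 : Dual (ZMod p) V) ∈ (Finset.univ : Finset (Dual (ZMod p) V)) := Finset.mem_univ _
    rw [← Finset.add_sum_erase _ _ h0]
    have hz : p * {x | r x (0 : Dual (ZMod p) V)}.ncard = 0 := by
      rw [hzero]; simp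
    rw [hz, zero_add]
    have h1 : ∀ β ∈ (Finset.univ : Finset (Dual (ZMod p) V)).erase 0,
        p * {x | r x β}.ncard ≤ q * a := by
      intro β hβ
      have := hup β (Finset.ne_of_mem_erase hβ)
      rwa [hpsub] at this
    have h2 := Finset.sum_le_card_nsmul _ _ _ h1
    have h3 : ((Finset.univ : Finset (Dual (ZMod p) V)).erase 0).card = p ^ 2 * a - 1 := by
      rw [Finset.card_erase_of_mem h0, Finset.card_univ, ← Nat.card_eq_fintype_card, card_dual, hm, ha]
      congr 1
      ring
    rw [h3, smul_eq_mul] at h2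
    exact h2
  -- conclude
  have hqa : 0 < q * a := Nat.mul_pos (by omega) hapos
  have hfin : p * (p ^ 2 * a - p * a) * (q * a) ≤ (p ^ 2 * a - 1) * (q * a) := by
    calc p * (p ^ 2 * a - p * a) * (q * a) = p * ((p ^ 2 * a - p * a) * (q * a)) := by ring
      _ ≤ p * ∑ x : V, {β | r x β}.ncard := Nat.mul_le_mul_left _ hL
      _ = p * ∑ β : Dual (ZMod p) V, {x | r x β}.ncard := by rw [hdc]
      _ ≤ _ := hU
  have hfin2 := Nat.le_of_mul_le_mul_right hfin hqa
  have h3 : p * (p ^ 2 * a - p * a) = p ^ 2 * a * q := by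
    have h4 : p ^ 2 * a - p * a = p * a * q := by
      rw [hq]
      have : (q + 1) ^ 2 * a = (q + 1) * a * q + (q + 1) * a := by ring
      omega
    rw [h4, hq]
    ring
  rw [h3] at hfin2
  have h4 : 0 < p ^ 2 * a := by positivity
  have h5 : p ^ 2 * a ≤ p ^ 2 * a * q := Nat.le_mul_of_pos_right _ (by omega)
  omega

end Cfsg.Agent.Lib.VaughanLee.Counting
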