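import Mathlib

/-!
# A product bound for `[N, G]`

If a nilpotent group `G` is generated by `x i` (`i` in a finite type) and `N` is normal, then
`|[N, G]| ≤ ∏ i, |N : C_N (x i)|`.
-/

set_option autoImplicit false

namespace Cfsg.Agent.Lib.VaughanLee.ProductBound

open Subgroup
open scoped commutatorElement

variable {G : Type*} [Group G]

theorem card_sup_le [Finite G] (H N : Subgroup G) [N.Normal] :
    Nat.card ↥(H ⊔ N) ≤ Nat.card H * Nat.card N := by
  rw [← Nat.card_prod]
  let f : H × N → ↥(H ⊔ N) := fun a =>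
    ⟨(a.1 : G) * a.2, Subgroup.mul_mem _ (mem_sup_left a.1.2) (mem_sup_right a.2.2)⟩
  apply Nat.card_le_card_of_surjective f
  rintro ⟨g, hg⟩
  obtain ⟨a, ha, b, hb, rfl⟩ := Subgroup.mem_sup_of_normal_right.mp hg
  exact ⟨(⟨a, ha⟩, ⟨b, hb⟩), rfl⟩

theorem normal_of_le_center' {H : Subgroup G} (h : H ≤ center G) : H.Normal := by
  constructor
  intro n hn g
  have := (Subgroup.mem_center_iff.mp (h hn)) g
  rw [this]
  simpa using hn

/-- Central subgroups: the order of the join is at most the product of the orders. -/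
theorem card_iSup_le [Finite G] {ι : Type*} (I : ι → Subgroup G) (h : ∀ i, I i ≤ center G)
    (s : Finset ι) : Nat.card ↥(⨆ i ∈ s, I i) ≤ ∏ i ∈ s, Nat.card (I i) := by
  classical
  induction s using Finset.induction_on with
  | empty => simp
  | insert a s ha ih =>
    rw [Finset.iSup_insert, Finset.prod_insert ha, sup_comm]
    haveI := normal_of_le_center' (h a)
    calc _ ≤ Nat.card ↥(⨆ i ∈ s, I i) * Nat.card (I a) := card_sup_le _ _
      _ ≤ (∏ i ∈ s, Nat.card (I i)) * Nat.card (I a) := Nat.mul_le_mul_right _ ih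
      _ = _ := mul_comm _ _

/-- Normal subgroups of nilpotent groups: `[N, G] < N` unless `N` is trivial. -/
theorem commutator_ne_self [Group.IsNilpotent G] {N : Subgroup G} (hN : N ≠ ⊥) :
    ⁅N, (⊤ : Subgroup G)⁆ ≠ N := by
  intro h
  apply hN
  obtain ⟨n, hn⟩ := Subgroup.nilpotent_iff_lowerCentralSeries.mp (inferInstance : Group.IsNilpotent G)
  have hle : ∀ k, N ≤ (⊤ : Subgroup G).lowerCentralSeries k := by
    intro k
    induction k with
    | zero => simp
    | succ k ih =>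
      rw [← h]
      exact Subgroup.commutator_mono ih le_rfl
  rw [eq_bot_iff, ← hn]
  exact hle n

theorem relIndex_pos [Finite G] (H K : Subgroup G) : 0 < H.relIndex K :=
  Nat.pos_of_ne_zero (Subgroup.index_ne_zero_of_finite)

/-- `|E : C_E(x)| · |N : E| = |N : C_N(x)|` for `C_N(x) ≤ E ≤ N`, and monotonicity in the subgroup. -/
theorem relIndex_key [Finite G] (C A N E : Subgroup G) (hAE : A ≤ E) (hCE : C ⊓ N ≤ E) (hEN : E ≤ N) :
    E.relIndex N * C.relIndex A ≤ C.relIndex N := by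
  have h1 : C.relIndex A ≤ C.relIndex E := by
    exact Subgroup.relIndex_le_of_le_right hAE (relIndex_pos C E).ne'
  have h2 : (C ⊓ N).relIndex E * E.relIndex N = (C ⊓ N).relIndex N :=
    Subgroup.relIndex_mul_relIndex _ _ _ hCE hEN
  have h3 : (C ⊓ N).relIndex N = C.relIndex N := Subgroup.inf_relIndex_right _ _
  have h4 : (C ⊓ N).relIndex E = C.relIndex E := by
    rw [← Subgroup.inf_relIndex_right (C ⊓ N) E, ← Subgroup.inf_relIndex_right C E]
    congr 1
    rw [inf_assoc, inf_eq_right.mpr hEN]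
  rw [h4, h3] at h2
  calc E.relIndex N * C.relIndex A ≤ E.relIndex N * C.relIndex E := Nat.mul_le_mul_left _ h1
    _ = C.relIndex N := by rw [mul_comm, h2]

/-- The product bound. -/
theorem card_commutator_le [Finite G] [Group.IsNilpotent G] {ι : Type*} [Fintype ι] (x : ι → G)
    (hx : closure (Set.range x) = ⊤) (N : Subgroup G) [N.Normal] :
    Nat.card ↥⁅N, (⊤ : Subgroup G)⁆ ≤ ∏ i, (centralizer ({x i} : Set G)).relIndex N := by
  classical
  induction' hn : Nat.card N using Nat.strong_induction_on with n ih generalizing N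
  by_cases hN : N = ⊥
  · subst hN
    rw [Subgroup.commutator_bot_left]
    simp only [Subgroup.card_bot]
    exact Nat.one_le_iff_ne_zero.mpr (Finset.prod_ne_zero_iff.mpr fun i _ => (relIndex_pos _ _).ne')
  set A : Subgroup G := ⁅N, (⊤ : Subgroup G)⁆ with hA
  haveI hAn : A.Normal := Subgroup.commutator_normal _ _
  have hAN : A ≤ N := Subgroup.commutator_le_left _ _
  have hAlt : A < N := lt_of_le_of_ne hAN (commutator_ne_self hN)
  have hcardlt : Nat.card A < n := by
    rw [← hn]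
    have h' : (A : Set G) ⊂ N := SetLike.coe_ssubset_coe.mpr hAlt
    have := Set.ncard_lt_ncard h' (Set.toFinite _)
    rwa [← Nat.card_coe_set_eq, ← Nat.card_coe_set_eq] at this
  have hIH := ih _ hcardlt A rfl
  set B : Subgroup G := ⁅A, (⊤ : Subgroup G)⁆ with hB
  haveI hBn : B.Normal := Subgroup.commutator_normal _ _
  let mk : G →* G ⧸ B := QuotientGroup.mk' B
  have hmk : ∀ g, mk g = (g : G ⧸ B) := fun _ => rfl
  -- elements of `A` are central modulo `B`
  have hcen : ∀ a ∈ A, mk a ∈ center (G ⧸ B) := by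
    intro a ha
    rw [Subgroup.mem_center_iff]
    intro q
    obtain ⟨g, rfl⟩ := QuotientGroup.mk_surjective q
    have h1 : ⁅a, g⁆ ∈ B := Subgroup.commutator_mem_commutator ha (mem_top g)
    have h2 : mk ⁅a, g⁆ = 1 := (QuotientGroup.eq_one_iff _).mpr h1
    rw [commutatorElement_def, map_mul, map_mul, map_mul, map_inv, map_inv] at h2
    have h3 : mk a * mk g = mk g * mk a := by
      calc mk a * mk g = (mk a * mk g * (mk a)⁻¹ * (mk g)⁻¹) * (mk g * mk a) := by group
        _ = mk g * mk a := by rw [h2, one_mul]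
    exact h3.symm
  have hcomm : ∀ a ∈ A, ∀ q : G ⧸ B, mk a * q = q * mk a := fun a ha q =>
    ((Subgroup.mem_center_iff.mp (hcen a ha)) q).symm
  -- the homomorphisms `f ↦ [f, x i]` modulo `B`
  have hNA : ∀ f ∈ N, ∀ g : G, ⁅f, g⁆ ∈ A := fun f hf g =>
    Subgroup.commutator_mem_commutator hf (mem_top g)
  have hmul1 : ∀ f₁ ∈ N, ∀ f₂ ∈ N, ∀ g : G, mk ⁅f₁ * f₂, g⁆ = mk ⁅f₁, g⁆ * mk ⁅f₂, g⁆ := by
    intro f₁ h₁ f₂ h₂ g
    have h3 : ⁅f₁ * f₂, g⁆ = f₁ * ⁅f₂, g⁆ * f₁⁻¹ * ⁅f₁, g⁆ := by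
      simp only [commutatorElement_def]; group
    rw [h3, map_mul, map_mul, map_mul, map_inv]
    have hc := hcomm _ (hNA f₂ h₂ g)
    have hd := hcomm _ (hNA f₁ h₁ g)
    calc mk f₁ * mk ⁅f₂, g⁆ * (mk f₁)⁻¹ * mk ⁅f₁, g⁆
        = (mk ⁅f₂, g⁆ * mk f₁) * (mk f₁)⁻¹ * mk ⁅f₁, g⁆ := by rw [hc (mk f₁)]
      _ = mk ⁅f₂, g⁆ * mk ⁅f₁, g⁆ := by group
      _ = _ := (hc _)
  have hmul2 : ∀ f ∈ N, ∀ g₁ g₂ : G, mk ⁅f, g₁ * g₂⁆ = mk ⁅f, g₁⁆ * mk ⁅f, g₂⁆ := by
    intro f hf g₁ g₂
    have h3 : ⁅f, g₁ * g₂⁆ = ⁅f, g₁⁆ * (g₁ * ⁅f, g₂⁆ * g₁⁻¹) := by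
      simp only [commutatorElement_def]; group
    rw [h3, map_mul, map_mul, map_mul, map_inv]
    have hc := hcomm _ (hNA f hf g₂)
    congr 1
    calc mk g₁ * mk ⁅f, g₂⁆ * (mk g₁)⁻¹ = (mk ⁅f, g₂⁆ * mk g₁) * (mk g₁)⁻¹ := by rw [hc (mk g₁)]
      _ = _ := by group
  let φ : ∀ i, N →* G ⧸ B := fun i =>
    MonoidHom.mk' (fun f : N => mk ⁅(f : G), x i⁆) (fun f₁ f₂ => hmul1 _ f₁.2 _ f₂.2 _)
  have hφ : ∀ i (f : N), φ i f = mk ⁅(f : G), x i⁆ := fun _ _ => rfl
  let I : ι → Subgroup (G ⧸ B) := fun i => (φ i).range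
  have hIcen : ∀ i, I i ≤ center (G ⧸ B) := by
    rintro i _ ⟨f, rfl⟩
    exact hcen _ (hNA _ f.2 _)
  set S : Subgroup (G ⧸ B) := ⨆ i, I i with hS
  have hAS : A ≤ S.comap mk := by
    rw [hA, Subgroup.commutator_le]
    intro f hf g _
    let ψ : G →* G ⧸ B := MonoidHom.mk' (fun g => mk ⁅f, g⁆) (hmul2 f hf)
    have h1 : closure (Set.range x) ≤ S.comap ψ := by
      rw [closure_le]
      rintro _ ⟨i, rfl⟩
      show mk ⁅f, x i⁆ ∈ S
      exact (le_iSup I i) ⟨⟨f, hf⟩, rfl⟩
    rw [hx] at h1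
    exact h1 (mem_top g)
  have hcardS : Nat.card S ≤ ∏ i, Nat.card (I i) := by
    have h1 := card_iSup_le I hIcen Finset.univ
    simpa using h1
  -- `|A| ≤ |A / B| |B|`
  have hcardA : Nat.card A ≤ Nat.card S * Nat.card B := by
    let f : A →* G ⧸ B := mk.comp A.subtype
    have h1 := Subgroup.card_mul_index f.ker
    rw [Subgroup.index_ker] at h1
    have h2 : Nat.card f.ker ≤ Nat.card B := by
      let j : f.ker → B := fun k => ⟨k.1.1, (QuotientGroup.eq_one_iff _).mp k.2⟩
      apply Nat.card_le_card_of_injective j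
      intro k₁ k₂ h
      have : (k₁.1.1 : G) = k₂.1.1 := congrArg (fun y : B => (y : G)) h
      exact Subtype.ext (Subtype.ext this)
    have h3 : Nat.card f.range ≤ Nat.card S := by
      have hle : f.range ≤ S := by
        rintro _ ⟨a, rfl⟩
        exact hAS a.2
      exact Nat.card_le_card_of_injective (Subgroup.inclusion hle) (Subgroup.inclusion_injective hle)
    rw [← h1, mul_comm]
    exact Nat.mul_le_mul h3 h2
  -- the index estimate for each `i`
  have hi : ∀ i, Nat.card (I i) * (centralizer ({x i} : Set G)).relIndex A ≤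
      (centralizer ({x i} : Set G)).relIndex N := by
    intro i
    set C := centralizer ({x i} : Set G) with hC
    set E := A ⊔ (C ⊓ N) with hE
    have hEN : E ≤ N := sup_le hAN inf_le_right
    have h1 := relIndex_key C A N E le_sup_left le_sup_right hEN
    have h2 : Nat.card (I i) = (φ i).ker.index := (Subgroup.index_ker _).symm
    have h3 : E.subgroupOf N ≤ (φ i).ker := by
      have hW : E ≤ ((φ i).ker).map N.subtype := by
        refine sup_le ?_ ?_
        · intro a ha
          refine ⟨⟨a, hAN ha⟩, ?_, rfl⟩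
          show mk ⁅a, x i⁆ = 1
          exact (QuotientGroup.eq_one_iff _).mpr
            (Subgroup.commutator_mem_commutator ha (mem_top _))
        · rintro c ⟨hc, hcN⟩
          refine ⟨⟨c, hcN⟩, ?_, rfl⟩
          show mk ⁅c, x i⁆ = 1
          have hcx : c * x i = x i * c := by
            have := Subgroup.mem_centralizer_iff.mp hc (x i) (Set.mem_singleton _)
            exact this.symm
          rw [commutatorElement_eq_one_iff_mul_comm.mpr hcx, map_one]
      intro e he
      obtain ⟨k, hk, hke⟩ := hW he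
      have : k = e := Subtype.ext hke
      rwa [← this]
    have h4 : (φ i).ker.index ≤ E.relIndex N :=
      Nat.le_of_dvd (relIndex_pos E N) (Subgroup.index_dvd_of_le h3)
    calc Nat.card (I i) * C.relIndex A ≤ E.relIndex N * C.relIndex A := by
          rw [h2]; exact Nat.mul_le_mul_right _ h4
      _ ≤ _ := h1
  calc Nat.card A ≤ Nat.card S * Nat.card B := hcardA
    _ ≤ (∏ i, Nat.card (I i)) * ∏ i, (centralizer ({x i} : Set G)).relIndex A :=
        Nat.mul_le_mul hcardS hIH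
    _ = ∏ i, (Nat.card (I i) * (centralizer ({x i} : Set G)).relIndex A) :=
        (Finset.prod_mul_distrib).symm
    _ ≤ _ := Finset.prod_le_prod' fun i _ => hi i

end Cfsg.Agent.Lib.VaughanLee.ProductBound
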