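import Mathlib
import Cfsg.Agent.Lib.PGroups.Basic
import Cfsg.Agent.Lib.VaughanLee.Counting
import Cfsg.Agent.Lib.VaughanLee.ProductBound

/-!
# Vaughan-Lee's bound for the derived subgroup of a `p`-group of given breadth

If each conjugacy class of the finite `p`-group `G` has at most `p ^ b` elements, then
`|G'| ≤ p ^ (b (b + 1) / 2)`.
-/

set_option autoImplicit false

namespace Cfsg.Agent.Lib.VaughanLee.Main

open Subgroup Module
open scoped commutatorElement

universe u

section generic

variable {Q : Type*} [Group Q]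

/-- If `[a, b]` is central then `[a ^ n, b] = [a, b] ^ n`. -/
theorem comm_pow {a b : Q} (h : ⁅a, b⁆ ∈ center Q) (n : ℕ) : ⁅a ^ n, b⁆ = ⁅a, b⁆ ^ n := by
  induction n with
  | zero => simp
  | succ n ih =>
    have h3 : ⁅a ^ (n + 1), b⁆ = a ^ n * ⁅a, b⁆ * (a ^ n)⁻¹ * ⁅a ^ n, b⁆ := by
      simp only [commutatorElement_def, pow_succ]; group
    rw [h3, ih, (Subgroup.mem_center_iff.mp h) (a ^ n), mul_inv_cancel_right, pow_succ']

theorem mem_center_of_commutators {f : Q} (h : ∀ g : Q, ⁅f, g⁆ = 1) : f ∈ center Q := by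
  rw [Subgroup.mem_center_iff]
  intro g
  exact (commutatorElement_eq_one_iff_mul_comm.mp (h g)).symm

/-- A bound for the order of a group generated by finitely many central elements of exponent `p`. -/
theorem card_closure_le [Finite Q] {p : ℕ} (hp : 0 < p) (T : Finset Q)
    (hT : ∀ t ∈ T, t ∈ center Q ∧ t ^ p = 1) :
    Nat.card (closure (T : Set Q)) ≤ p ^ T.card := by
  classical
  induction T using Finset.induction_on with
  | empty => simp
  | insert a T ha ih =>
    have hih := ih (fun t ht => hT t (Finset.mem_insert_of_mem ht))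
    obtain ⟨hac, hap⟩ := hT a (Finset.mem_insert_self _ _)
    have hz : zpowers a ≤ center Q := by
      rw [zpowers_le]; exact hac
    haveI := ProductBound.normal_of_le_center' hz
    have heq : closure ((insert a T : Finset Q) : Set Q) = closure (T : Set Q) ⊔ zpowers a := by
      rw [Finset.coe_insert, Set.insert_eq, Subgroup.closure_union, sup_comm, zpowers_eq_closure]
    rw [heq, Finset.card_insert_of_notMem ha, pow_succ]
    have h1 := ProductBound.card_sup_le (closure (T : Set Q)) (zpowers a)
    have h2 : Nat.card (zpowers a) ≤ p := by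
      rw [Nat.card_zpowers]
      exact Nat.le_of_dvd hp (orderOf_dvd_of_pow_eq_one hap)
    exact h1.trans (Nat.mul_le_mul hih h2)

/-- Elements generating a group which commute modulo a normal subgroup: the derived subgroup lies
in that normal subgroup. -/
theorem commutator_le_of_generators {ι : Type*} {y : ι → Q} (hy : closure (Set.range y) = ⊤)
    (B : Subgroup Q) [B.Normal] (h : ∀ i j, ⁅y i, y j⁆ ∈ B) : commutator Q ≤ B := by
  rw [commutator_def, Subgroup.commutator_le]
  intro g _ k _
  let mk : Q →* Q ⧸ B := QuotientGroup.mk' B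
  have h0 : ∀ a b : Q, mk a * mk b = mk b * mk a ↔ ⁅a, b⁆ ∈ B := by
    intro a b
    rw [← QuotientGroup.eq_one_iff ⁅a, b⁆]
    show _ ↔ mk ⁅a, b⁆ = 1
    rw [map_commutatorElement, commutatorElement_eq_one_iff_mul_comm]
  have h1 : ∀ i, ∀ a : Q, mk a * mk (y i) = mk (y i) * mk a := by
    intro i a
    have hle : closure (Set.range y) ≤ (centralizer ({mk (y i)} : Set (Q ⧸ B))).comap mk := by
      rw [closure_le]
      rintro _ ⟨j, rfl⟩
      show mk (y j) ∈ centralizer ({mk (y i)} : Set (Q ⧸ B))
      rw [Subgroup.mem_centralizer_iff]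
      rintro _ rfl
      exact ((h0 _ _).mpr (h i j))
    rw [hy] at hle
    have := hle (mem_top a)
    have h2 : mk a ∈ centralizer ({mk (y i)} : Set (Q ⧸ B)) := this
    rw [Subgroup.mem_centralizer_iff] at h2
    exact (h2 _ rfl).symm
  have hle : closure (Set.range y) ≤ (centralizer ({mk g} : Set (Q ⧸ B))).comap mk := by
    rw [closure_le]
    rintro _ ⟨j, rfl⟩
    show mk (y j) ∈ centralizer ({mk g} : Set (Q ⧸ B))
    rw [Subgroup.mem_centralizer_iff]
    rintro _ rfl
    exact h1 j g
  rw [hy] at hle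
  have h2 : mk k ∈ centralizer ({mk g} : Set (Q ⧸ B)) := hle (mem_top k)
  rw [Subgroup.mem_centralizer_iff] at h2
  exact (h0 _ _).mp (h2 _ rfl)

/-- `|K| ≤ |K R / R| |R|`. -/
theorem card_le_map_mul [Finite Q] (K R : Subgroup Q) [R.Normal] :
    Nat.card K ≤ Nat.card (K.map (QuotientGroup.mk' R)) * Nat.card R := by
  let f : K →* Q ⧸ R := (QuotientGroup.mk' R).comp K.subtype
  have h1 := Subgroup.card_mul_index f.ker
  rw [Subgroup.index_ker] at h1
  have h2 : Nat.card f.ker ≤ Nat.card R := by
    let j : f.ker → R := fun k => ⟨k.1.1, (QuotientGroup.eq_one_iff _).mp k.2⟩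
    apply Nat.card_le_card_of_injective j
    intro k₁ k₂ h
    have : (k₁.1.1 : Q) = k₂.1.1 := congrArg (fun y : R => (y : Q)) h
    exact Subtype.ext (Subtype.ext this)
  have h3 : Nat.card f.range ≤ Nat.card (K.map (QuotientGroup.mk' R)) := by
    have hle : f.range ≤ K.map (QuotientGroup.mk' R) := by
      rintro _ ⟨a, rfl⟩
      exact ⟨a.1, a.2, rfl⟩
    exact Nat.card_le_card_of_injective (Subgroup.inclusion hle) (Subgroup.inclusion_injective hle)
  rw [← h1, mul_comm]
  exact Nat.mul_le_mul h3 h2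

end generic

section central

variable {G : Type u} [Group G] [Finite G] {p : ℕ} [hp : Fact p.Prime]

/-- For a normal `N ≤ G'` of index `p` in `G'`, the Frattini subgroup is central modulo `N`, and
every commutator has `p`-th power in `N`. -/
theorem frattini_central_mod (hG : IsPGroup p G) (N : Subgroup G) [N.Normal]
    (hN : N ≤ commutator G) (hi : N.relIndex (commutator G) = p) :
    ∀ f ∈ frattini G, (QuotientGroup.mk' N) f ∈ center (G ⧸ N) := by
  let mk : G →* G ⧸ N := QuotientGroup.mk' N
  let A : Subgroup (G ⧸ N) := (commutator G).map mk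
  haveI hAn : A.Normal := Subgroup.Normal.map inferInstance _ (QuotientGroup.mk'_surjective N)
  have hcardA : Nat.card A = p := by
    let f : (commutator G) →* G ⧸ N := mk.comp (commutator G).subtype
    have hk : f.ker = N.subgroupOf (commutator G) := by
      ext c
      simp only [MonoidHom.mem_ker, Subgroup.mem_subgroupOf]
      exact QuotientGroup.eq_one_iff _
    have h1 := Subgroup.index_ker f
    rw [hk] at h1
    have hr : f.range = A := by
      ext q
      constructor
      · rintro ⟨c, rfl⟩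
        exact ⟨c.1, c.2, rfl⟩
      · rintro ⟨c, hc, rfl⟩
        exact ⟨⟨c, hc⟩, rfl⟩
    rw [hr] at h1
    rw [← h1]
    exact hi
  have hAne : A ≠ ⊥ := by
    intro h
    rw [h, Subgroup.card_bot] at hcardA
    exact hp.out.one_lt.ne hcardA
  obtain ⟨z, hzA, hzc, hzo⟩ := Cfsg.Agent.Lib.PGroups.Basic.exists_central_orderOf_eq (hG.to_quotient N) A hAne
  have hAz : A = zpowers z := by
    symm
    apply Subgroup.eq_of_le_of_card_ge
    · rw [zpowers_le]; exact hzA
    · rw [hcardA, Nat.card_zpowers, hzo]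
  have hAc : A ≤ center (G ⧸ N) := by
    rw [hAz, zpowers_le]; exact hzc
  have hAp : ∀ c ∈ A, c ^ p = 1 := by
    intro c hc
    rw [hAz] at hc
    obtain ⟨k, rfl⟩ := Subgroup.mem_zpowers_iff.mp hc
    rw [← zpow_natCast, zpow_comm, zpow_natCast, ← hzo, pow_orderOf_eq_one, one_zpow]
  let Z : Subgroup G := (center (G ⧸ N)).comap mk
  haveI : Z.Normal := Subgroup.Normal.comap inferInstance _
  have hcomm : commutator G ≤ Z := fun c hc => hAc ⟨c, hc, rfl⟩
  have hpow : ∀ x : G, x ^ p ∈ Z := by
    intro x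
    show mk (x ^ p) ∈ center (G ⧸ N)
    apply mem_center_of_commutators
    intro q
    obtain ⟨g, rfl⟩ := QuotientGroup.mk'_surjective N q
    have h1 : ⁅mk x, mk g⁆ ∈ A := ⟨⁅x, g⁆, Subgroup.commutator_mem_commutator (mem_top _) (mem_top _),
      map_commutatorElement _ _ _⟩
    rw [map_pow, comm_pow (hAc h1), hAp _ h1]
  have hle := Cfsg.Agent.Lib.PGroups.Basic.frattini_le_of_normal Z hcomm hpow
  exact fun f hf => hle hf

end central


section abstract

variable {G : Type u} [Group G] [Finite G] {p : ℕ} [hp : Fact p.Prime]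
  {V : Type u} [AddCommGroup V] [Module (ZMod p) V] [Finite V] {π : G → V}

theorem pi_one (hπ : ∀ g h, π (g * h) = π g + π h) : π 1 = 0 := by
  have := hπ 1 1
  rw [mul_one] at this
  simpa using this

theorem pi_inv (hπ : ∀ g h, π (g * h) = π g + π h) (g : G) : π g⁻¹ = - π g := by
  have := hπ g⁻¹ g
  rw [inv_mul_cancel, pi_one hπ] at this
  exact (eq_neg_of_add_eq_zero_left this.symm)

theorem pi_pow (hπ : ∀ g h, π (g * h) = π g + π h) (g : G) (n : ℕ) : π (g ^ n) = n • π g := by
  induction n with
  | zero => simp [pi_one hπ]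
  | succ n ih => rw [pow_succ, hπ, ih, succ_nsmul]

/-- The image of a subgroup of `G` in `V`, as a subspace. -/
def img (hπ : ∀ g h, π (g * h) = π g + π h) (S : Subgroup G) : Submodule (ZMod p) V where
  carrier := {w | ∃ u ∈ S, π u = w}
  add_mem' := by
    rintro _ _ ⟨a, ha, rfl⟩ ⟨b, hb, rfl⟩
    exact ⟨a * b, S.mul_mem ha hb, hπ a b⟩
  zero_mem' := ⟨1, S.one_mem, pi_one hπ⟩
  smul_mem' := by
    rintro c _ ⟨u, hu, rfl⟩
    refine ⟨u ^ c.val, S.pow_mem hu _, ?_⟩
    rw [pi_pow hπ]
    conv_rhs => rw [← ZMod.natCast_zmod_val c]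
    rw [Nat.cast_smul_eq_nsmul]

theorem mem_img (hπ : ∀ g h, π (g * h) = π g + π h) (S : Subgroup G) (w : V) :
    w ∈ img (p := p) hπ S ↔ ∃ u ∈ S, π u = w := Iff.rfl

/-- The subgroup of `G` above the kernel of a functional. -/
def kerSub (hπ : ∀ g h, π (g * h) = π g + π h) (β : Dual (ZMod p) V) : Subgroup G where
  carrier := {g | β (π g) = 0}
  mul_mem' := by
    intro a b ha hb
    show β (π (a * b)) = 0
    rw [hπ, map_add, show β (π a) = 0 from ha, show β (π b) = 0 from hb, add_zero]
  one_mem' := by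
    show β (π 1) = 0
    rw [pi_one hπ, map_zero]
  inv_mem' := by
    intro a ha
    show β (π a⁻¹) = 0
    rw [pi_inv hπ, map_neg, show β (π a) = 0 from ha, neg_zero]

theorem mem_kerSub (hπ : ∀ g h, π (g * h) = π g + π h) (β : Dual (ZMod p) V) (g : G) :
    g ∈ kerSub hπ β ↔ β (π g) = 0 := Iff.rfl

instance kerSub_normal (hπ : ∀ g h, π (g * h) = π g + π h) (β : Dual (ZMod p) V) :
    (kerSub hπ β).Normal := by
  constructor
  intro n hn g
  rw [mem_kerSub] at hn ⊢
  rw [hπ, hπ, pi_inv hπ, map_add, map_add, hn, map_neg]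
  simp

/-- Every element of `G` is an element of `ker β` times a power of a given element off `ker β`. -/
theorem exists_decomp (hπ : ∀ g h, π (g * h) = π g + π h) {β : Dual (ZMod p) V} {w : G}
    (hw : β (π w) ≠ 0) (g : G) : ∃ m ∈ kerSub hπ β, ∃ i : ℕ, g = m * w ^ i := by
  set c : ZMod p := β (π g) / β (π w) with hc
  refine ⟨g * (w ^ c.val)⁻¹, ?_, c.val, by group⟩
  rw [mem_kerSub, hπ, pi_inv hπ, pi_pow hπ, map_add, map_neg, map_nsmul, nsmul_eq_mul,
    ZMod.natCast_zmod_val, hc]
  field_simp
  simp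

/-- The elements commuting with `x` modulo `R`. -/
def cmod (R : Subgroup G) [R.Normal] (x : G) : Subgroup G :=
  (centralizer ({(QuotientGroup.mk' R) x} : Set (G ⧸ R))).comap (QuotientGroup.mk' R)

omit [Finite G] in
theorem mem_cmod (R : Subgroup G) [R.Normal] (x u : G) : u ∈ cmod R x ↔ ⁅x, u⁆ ∈ R := by
  unfold cmod
  rw [Subgroup.mem_comap, Subgroup.mem_centralizer_iff, ← QuotientGroup.eq_one_iff ⁅x, u⁆]
  show _ ↔ (QuotientGroup.mk' R) ⁅x, u⁆ = 1
  rw [map_commutatorElement, commutatorElement_eq_one_iff_mul_comm]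
  constructor
  · intro h
    exact h _ rfl
  · rintro h _ rfl
    exact h

omit [Finite G] in
theorem commute_mk_iff (N : Subgroup G) [N.Normal] (x y : G) :
    Commute ((QuotientGroup.mk' N) x) ((QuotientGroup.mk' N) y) ↔ ⁅x, y⁆ ∈ N := by
  rw [← QuotientGroup.eq_one_iff ⁅x, y⁆]
  show _ ↔ (QuotientGroup.mk' N) ⁅x, y⁆ = 1
  rw [map_commutatorElement, commutatorElement_eq_one_iff_mul_comm]
  rfl

/-- The subspaces needed for the counting lemma. -/
theorem exists_P (hG : IsPGroup p G) (hπ : ∀ g h, π (g * h) = π g + π h)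
    (hsurj : Function.Surjective π) (hker : ∀ g, π g = 0 ↔ g ∈ frattini G)
    (hM : ∀ M : Subgroup G, M ≠ ⊤ → ⁅M, M⁆ ≠ commutator G)
    (rep : V → G) (hrep : ∀ v, π (rep v) = v)
    (β : Dual (ZMod p) V) (hβ : β ≠ 0) :
    ∃ P : Submodule (ZMod p) V, P < LinearMap.ker β ∧ ∀ x ∈ LinearMap.ker β,
      ¬ img (p := p) hπ (cmod ⁅frattini G, (⊤ : Subgroup G)⁆ (rep x)) ≤ LinearMap.ker β → x ∈ P := by
  classical
  obtain ⟨w, hw⟩ : ∃ w : G, β (π w) ≠ 0 := by
    by_contra hc
    push_neg at hc
    apply hβ
    ext v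
    obtain ⟨g, rfl⟩ := hsurj v
    simpa using hc g
  set M := kerSub hπ β with hMdef
  have hMtop : M ≠ ⊤ := by
    intro h
    apply hw
    have : w ∈ M := by rw [h]; trivial
    exact this
  haveI hMn : M.Normal := kerSub_normal hπ β
  have hle : ⁅M, M⁆ ≤ commutator G := by
    rw [commutator_def]
    exact Subgroup.commutator_mono le_top le_top
  have hlt : ⁅M, M⁆ < commutator G := lt_of_le_of_ne hle (hM M hMtop)
  obtain ⟨N, hNn, h1, h2, hi⟩ :=
    Cfsg.Agent.Lib.PGroups.Basic.exists_normal_relIndex_below hG hlt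
  haveI := hNn
  have hcen := frattini_central_mod hG N h2 hi
  set mk : G →* G ⧸ N := QuotientGroup.mk' N with hmk
  let Z : Subgroup G := (center (G ⧸ N)).comap mk
  have hΦZ : frattini G ≤ Z := fun f hf => hcen f hf
  have hΦM : frattini G ≤ M := by
    intro f hf
    rw [hMdef, mem_kerSub, (hker f).mpr hf, map_zero]
  have hRN : ⁅frattini G, (⊤ : Subgroup G)⁆ ≤ N := by
    rw [Subgroup.commutator_le]
    intro f hf g _
    rw [← commute_mk_iff]
    exact (Subgroup.mem_center_iff.mp (hcen f hf) _).symm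
  refine ⟨img hπ (M ⊓ Z), ?_, ?_⟩
  · have hle2 : img (p := p) hπ (M ⊓ Z) ≤ LinearMap.ker β := by
      rintro _ ⟨u, hu, rfl⟩
      exact hu.1
    refine lt_of_le_of_ne hle2 ?_
    intro heq
    -- then `M` is central modulo `N`
    have hMZ : M ≤ Z := by
      intro m hm
      have hv : π m ∈ LinearMap.ker β := hm
      rw [← heq] at hv
      obtain ⟨r, hr, hrm⟩ := hv
      have h3 : r⁻¹ * m ∈ frattini G := by
        rw [← hker, hπ, pi_inv hπ, hrm]
        simp
      have h4 := Z.mul_mem hr.2 (hΦZ h3)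
      simpa using h4
    have hcomm : commutator G ≤ N := by
      rw [commutator_def, Subgroup.commutator_le]
      intro g _ h _
      rw [← commute_mk_iff]
      obtain ⟨m, hm, i, rfl⟩ := exists_decomp hπ hw g
      obtain ⟨m', hm', j, rfl⟩ := exists_decomp hπ hw h
      have hc1 : mk m ∈ center (G ⧸ N) := hMZ hm
      have hc2 : mk m' ∈ center (G ⧸ N) := hMZ hm'
      have hcm : ∀ q, Commute (mk m) q := fun q => (Subgroup.mem_center_iff.mp hc1 q).symm
      have hcm' : ∀ q, Commute (mk m') q := fun q => (Subgroup.mem_center_iff.mp hc2 q).symm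
      show Commute (mk (m * w ^ i)) (mk (m' * w ^ j))
      rw [map_mul, map_mul, map_pow, map_pow]
      apply Commute.mul_left
      · exact hcm _
      · apply Commute.mul_right
        · exact (hcm' _).symm
        · exact (Commute.refl _).pow_pow _ _
    have hNe : N = commutator G := le_antisymm h2 hcomm
    rw [hNe, Subgroup.relIndex_self] at hi
    exact hp.out.one_lt.ne hi
  · intro v hv hnot
    obtain ⟨y, hy, hyb⟩ := SetLike.not_le_iff_exists.mp hnot
    obtain ⟨u, hu, rfl⟩ := hy
    rw [mem_cmod] at hu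
    have hxM : rep v ∈ M := by
      rw [hMdef, mem_kerSub, hrep]
      exact hv
    refine ⟨rep v, ⟨hxM, ?_⟩, hrep v⟩
    show mk (rep v) ∈ center (G ⧸ N)
    rw [Subgroup.mem_center_iff]
    intro q
    obtain ⟨g, rfl⟩ := QuotientGroup.mk'_surjective N q
    have hub : β (π u) ≠ 0 := hyb
    obtain ⟨m, hm, i, rfl⟩ := exists_decomp hπ hub g
    have hc1 : Commute (mk (rep v)) (mk m) := by
      rw [hmk, commute_mk_iff]
      exact h1 (Subgroup.commutator_mem_commutator hxM hm)
    have hc2 : Commute (mk (rep v)) (mk u) := by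
      rw [hmk, commute_mk_iff]
      exact hRN hu
    show mk (m * u ^ i) * _ = _ * mk (m * u ^ i)
    rw [map_mul, map_pow]
    exact (hc1.mul_right (hc2.pow_right i)).symm

theorem arith (m d : ℕ) : (m + 1) * (m + 1 - 1) / 2 + d * (m + 1) ≤ (m + d) * (m + d + 1) / 2 := by
  rw [Nat.le_div_iff_mul_le two_pos, add_mul]
  have h : (m + 1) * (m + 1 - 1) / 2 * 2 = (m + 1) * m := by
    rw [Nat.add_sub_cancel]
    apply Nat.div_mul_cancel
    exact even_iff_two_dvd.mp (Nat.even_mul_pred_self (m + 1) |> fun h => by simpa [mul_comm] using h)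
  rw [h]
  nlinarith [Nat.zero_le (d * d), Nat.le_mul_self d]

/-- The main case. -/
theorem caseB_aux (hG : IsPGroup p G) (b : ℕ)
    (hb : ∀ x : G, (centralizer ({x} : Set G)).index ≤ p ^ b)
    (hπ : ∀ g h, π (g * h) = π g + π h)
    (hsurj : Function.Surjective π) (hker : ∀ g, π g = 0 ↔ g ∈ frattini G)
    (hM : ∀ M : Subgroup G, M ≠ ⊤ → ⁅M, M⁆ ≠ commutator G)
    (hne : commutator G ≠ ⊥) :
    Nat.card (commutator G) ≤ p ^ (b * (b + 1) / 2) := by
  classical
  haveI : Group.IsNilpotent G := hG.isNilpotent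
  haveI : Module.Finite (ZMod p) V := Module.Finite.of_finite
  set Φ := frattini G with hΦ
  set R : Subgroup G := ⁅Φ, (⊤ : Subgroup G)⁆ with hR
  haveI hRn : R.Normal := Subgroup.commutator_normal _ _
  let rep : V → G := Function.surjInv hsurj
  have hrep : ∀ v, π (rep v) = v := Function.surjInv_eq hsurj
  let K : V → Submodule (ZMod p) V := fun v => img hπ (cmod R (rep v))
  have hsmall := fun α hα => Counting.exists_small K
    (fun β hβ => exists_P hG hπ hsurj hker hM rep hrep β hβ) α hα
  let X : Set V := {v | finrank (ZMod p) (K v) ≤ 1}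
  have hspan : Submodule.span (ZMod p) X = ⊤ := by
    by_contra h
    obtain ⟨α, hα, hle⟩ := Submodule.exists_le_ker_of_lt_top _ (lt_top_iff_ne_top.mpr h)
    obtain ⟨x, hx, hxX⟩ := hsmall α hα
    exact hx (hle (Submodule.subset_span hxX))
  obtain ⟨B, hBX, hBspan, hBli⟩ := exists_linearIndependent (ZMod p) X
  letI : Fintype B := Fintype.ofFinite B
  set n := finrank (ZMod p) V with hn
  have hcardB : Fintype.card B = n := by
    have h1 := finrank_span_set_eq_card (R := ZMod p) (s := B) hBli
    rw [hBspan, hspan, finrank_top, Set.toFinset_card] at h1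
    exact h1.symm
  let e : B ≃ Fin n := Fintype.equivFinOfCardEq hcardB
  let y : Fin n → G := fun i => rep (e.symm i)
  have hπy : ∀ i, π (y i) = e.symm i := fun i => hrep _
  -- the `y i` generate
  have hy : closure (Set.range y) = ⊤ := by
    apply frattini_nongenerating
    rw [eq_top_iff]
    intro g _
    have himg : img (p := p) hπ (closure (Set.range y)) = ⊤ := by
      rw [eq_top_iff, ← hspan, ← hBspan, Submodule.span_le]
      intro v hv
      refine ⟨y (e ⟨v, hv⟩), Subgroup.subset_closure ⟨_, rfl⟩, ?_⟩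
      rw [hπy]
      simp
    have hg : π g ∈ img (p := p) hπ (closure (Set.range y)) := by rw [himg]; trivial
    obtain ⟨u, hu, huv⟩ := hg
    have h3 : u⁻¹ * g ∈ frattini G := by
      rw [← hker, hπ, pi_inv hπ, huv]
      simp
    have h4 := Subgroup.mul_mem _ (mem_sup_left hu : u ∈ closure (Set.range y) ⊔ frattini G)
      (mem_sup_right h3 : _ ∈ closure (Set.range y) ⊔ frattini G)
    simpa using h4
  -- `n ≠ 0`
  have hn0 : n ≠ 0 := by
    intro h0
    haveI : Subsingleton V := Module.finrank_zero_iff.mp h0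
    have hΦtop : ⊥ ⊔ frattini G = ⊤ := by
      rw [bot_sup_eq, eq_top_iff]
      intro g _
      exact (hker g).mp (Subsingleton.elim _ _)
    have hbot : (⊥ : Subgroup G) = ⊤ := frattini_nongenerating hΦtop
    apply hne
    have h5 : commutator G ≤ (⊤ : Subgroup G) := le_top
    rw [← hbot] at h5
    exact eq_bot_iff.mpr h5
  obtain ⟨m, hm⟩ : ∃ m, n = m + 1 := Nat.exists_eq_succ_of_ne_zero hn0
  have hcV : Nat.card V = p ^ n := Counting.card_total
  -- `|V| |Φ| ≤ |G|`
  have hcardG : p ^ n * Nat.card Φ ≤ Nat.card G := by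
    rw [← hcV, ← Nat.card_prod]
    let f : V × Φ → G := fun a => rep a.1 * a.2
    apply Nat.card_le_card_of_injective f
    rintro ⟨v, a⟩ ⟨v', a'⟩ h
    have h1 : rep v * a = rep v' * a' := h
    have h2 : π (rep v * a) = π (rep v' * a') := by rw [h1]
    have ha : π (a : G) = 0 := (hker _).mpr a.2
    have ha' : π (a' : G) = 0 := (hker _).mpr a'.2
    rw [hπ, hπ, hrep, hrep, ha, ha', add_zero, add_zero] at h2
    subst h2
    have h3 : (a : G) = a' := mul_left_cancel h1
    exact Prod.ext rfl (Subtype.ext h3)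
  -- the index estimates
  have hidx : ∀ i, m ≤ b ∧ (centralizer ({y i} : Set G)).relIndex Φ ≤ p ^ (b - m) := by
    intro i
    set U := cmod R (y i) with hU
    have hKU : K (e.symm i) = img hπ U := rfl
    have hfr : finrank (ZMod p) (img (p := p) hπ U) ≤ 1 := by
      rw [← hKU]
      exact hBX (e.symm i).2
    have hcimg : Nat.card (img (p := p) hπ U) ≤ p := by
      rw [Counting.card_sub]
      calc p ^ finrank (ZMod p) (img (p := p) hπ U) ≤ p ^ 1 :=
            Nat.pow_le_pow_right hp.out.pos hfr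
        _ = p := pow_one p
    have hΦU : Φ ≤ U := by
      intro f hf
      rw [hU, mem_cmod]
      have h1 : ⁅f, y i⁆ ∈ R := Subgroup.commutator_mem_commutator hf (mem_top _)
      rw [← commutatorElement_inv]
      exact R.inv_mem h1
    have hcU : Nat.card U ≤ Nat.card (img (p := p) hπ U) * Nat.card Φ := by
      rw [← Nat.card_prod]
      have hs : ∀ w : img (p := p) hπ U, ∃ u ∈ U, π u = w := fun w => w.2
      choose s hsU hsπ using hs
      let f : U → img (p := p) hπ U × Φ := fun u =>
        let w : img (p := p) hπ U := ⟨π u, (mem_img hπ U _).mpr ⟨u, u.2, rfl⟩⟩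
        (w, ⟨(s w)⁻¹ * u, (hker _).mp (by rw [hπ, pi_inv hπ, hsπ]; simp [w])⟩)
      apply Nat.card_le_card_of_injective f
      intro u u' h
      have h1 := congrArg Prod.fst h
      have h2 := congrArg Prod.snd h
      simp only [f] at h1 h2
      have h3 := congrArg (fun z : Φ => (z : G)) h2
      have h4 := congrArg s h1
      simp only at h3
      rw [h4] at h3
      exact Subtype.ext (mul_left_cancel h3)
    have h1 : Nat.card U * U.index = Nat.card G := Subgroup.card_mul_index U
    have hUi : p ^ m ≤ U.index := by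
      have hΦpos : 0 < Nat.card Φ := Nat.card_pos
      have h2 : p ^ (m + 1) * Nat.card Φ ≤ (p * Nat.card Φ) * U.index := by
        calc p ^ (m + 1) * Nat.card Φ ≤ Nat.card G := by rw [← hm]; exact hcardG
          _ = Nat.card U * U.index := h1.symm
          _ ≤ (Nat.card (img (p := p) hπ U) * Nat.card Φ) * U.index := Nat.mul_le_mul_right _ hcU
          _ ≤ _ := Nat.mul_le_mul_right _ (Nat.mul_le_mul_right _ hcimg)
      have h3 : (p * Nat.card Φ) * p ^ m ≤ (p * Nat.card Φ) * U.index := by
        calc (p * Nat.card Φ) * p ^ m = p ^ (m + 1) * Nat.card Φ := by ring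
          _ ≤ _ := h2
      exact Nat.le_of_mul_le_mul_left h3 (Nat.mul_pos hp.out.pos hΦpos)
    set C := centralizer ({y i} : Set G) with hC
    have hCU : C ≤ U := by
      intro c hc
      rw [hU, mem_cmod]
      have h2 : y i * c = c * y i := Subgroup.mem_centralizer_iff.mp hc _ rfl
      rw [commutatorElement_eq_one_iff_mul_comm.mpr h2]
      exact R.one_mem
    have h2 : C.relIndex U * U.index = C.index := Subgroup.relIndex_mul_index hCU
    have h3 : p ^ m * C.relIndex U ≤ p ^ b := by
      calc p ^ m * C.relIndex U ≤ U.index * C.relIndex U := Nat.mul_le_mul_right _ hUi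
        _ = C.index := by rw [mul_comm, h2]
        _ ≤ _ := hb _
    have hrpos : 0 < C.relIndex U := ProductBound.relIndex_pos _ _
    have hmb : m ≤ b := by
      have h4 : p ^ m ≤ p ^ b := le_trans (Nat.le_mul_of_pos_right _ hrpos) h3
      exact (Nat.pow_le_pow_iff_right hp.out.one_lt).mp h4
    refine ⟨hmb, ?_⟩
    have h4 : C.relIndex U ≤ p ^ (b - m) := by
      have h5 : p ^ m * C.relIndex U ≤ p ^ m * p ^ (b - m) := by
        rw [← pow_add, Nat.add_sub_cancel' hmb]
        exact h3
      exact Nat.le_of_mul_le_mul_left h5 (pow_pos hp.out.pos m)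
    exact (Subgroup.relIndex_le_of_le_right hΦU (ProductBound.relIndex_pos _ _).ne').trans h4
  have hmb : m ≤ b := (hidx ⟨0, by omega⟩).1
  -- the bound for `R`
  have hcardR : Nat.card R ≤ (p ^ (b - m)) ^ n := by
    have h1 := ProductBound.card_commutator_le y hy Φ
    refine h1.trans ?_
    calc ∏ i, (centralizer ({y i} : Set G)).relIndex Φ ≤ ∏ _i : Fin n, p ^ (b - m) :=
          Finset.prod_le_prod' fun i _ => (hidx i).2
      _ = _ := by simp
  -- the bound for `G' / R`
  let mkR : G →* G ⧸ R := QuotientGroup.mk' R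
  have hcenR : ∀ f ∈ Φ, mkR f ∈ center (G ⧸ R) := by
    intro f hf
    rw [Subgroup.mem_center_iff]
    intro q
    obtain ⟨g, rfl⟩ := QuotientGroup.mk'_surjective R q
    exact ((commute_mk_iff R f g).mpr (Subgroup.commutator_mem_commutator hf (mem_top g))).symm
  have hpowR : ∀ a c : G, mkR ⁅a, c⁆ ∈ center (G ⧸ R) ∧ (mkR ⁅a, c⁆) ^ p = 1 := by
    intro a c
    have h1 : ⁅a, c⁆ ∈ Φ := Cfsg.Agent.Lib.PGroups.Basic.commutator_le_frattini hG
      (Subgroup.commutator_mem_commutator (mem_top a) (mem_top c))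
    have h2 := hcenR _ h1
    refine ⟨h2, ?_⟩
    rw [map_commutatorElement] at h2 ⊢
    rw [← comm_pow h2, ← map_pow]
    have h3 : a ^ p ∈ Φ := Cfsg.Agent.Lib.PGroups.Basic.pow_mem_frattini hG a
    have h4 := hcenR _ h3
    rw [commutatorElement_eq_one_iff_mul_comm]
    exact (Subgroup.mem_center_iff.mp h4 _).symm
  let T₀ : Finset (Σ _ : Fin n, Fin n) := Finset.univ.sigma fun j => Finset.Iio j
  let T : Finset (G ⧸ R) := T₀.image fun ij => mkR ⁅y ij.2, y ij.1⁆
  have hTprop : ∀ t ∈ T, t ∈ center (G ⧸ R) ∧ t ^ p = 1 := by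
    intro t ht
    obtain ⟨ij, -, rfl⟩ := Finset.mem_image.mp ht
    exact hpowR _ _
  have hTcard : T.card ≤ (m + 1) * (m + 1 - 1) / 2 := by
    refine Finset.card_image_le.trans ?_
    rw [Finset.card_sigma]
    simp only [Fin.card_Iio]
    rw [Fin.sum_univ_eq_sum_range (fun j => j) n, Finset.sum_range_id, hm]
  have hclos := card_closure_le hp.out.pos T hTprop
  have hcl : closure (T : Set (G ⧸ R)) ≤ center (G ⧸ R) := by
    rw [closure_le]
    exact fun t ht => (hTprop t ht).1
  haveI hcln := ProductBound.normal_of_le_center' hcl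
  let A : Subgroup G := (closure (T : Set (G ⧸ R))).comap mkR
  haveI hAn : A.Normal := Subgroup.Normal.comap hcln _
  have hpair : ∀ i j, i < j → ⁅y i, y j⁆ ∈ A := by
    intro i j hij
    apply Subgroup.subset_closure
    simp only [T, T₀, Finset.coe_image, Set.mem_image]
    refine ⟨⟨j, i⟩, ?_, rfl⟩
    simp [hij]
  have hall : ∀ i j, ⁅y i, y j⁆ ∈ A := by
    intro i j
    rcases lt_trichotomy i j with h | h | h
    · exact hpair i j h
    · subst h
      rw [commutatorElement_self]
      exact A.one_mem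
    · rw [← commutatorElement_inv]
      exact A.inv_mem (hpair j i h)
  have hGA : commutator G ≤ A := commutator_le_of_generators hy A hall
  have hcardC : Nat.card (commutator G) ≤ p ^ T.card * Nat.card R := by
    calc Nat.card (commutator G) ≤ Nat.card A :=
          Nat.card_le_card_of_injective (Subgroup.inclusion hGA) (Subgroup.inclusion_injective hGA)
      _ ≤ Nat.card (A.map (QuotientGroup.mk' R)) * Nat.card R := card_le_map_mul A R
      _ ≤ Nat.card (closure (T : Set (G ⧸ R))) * Nat.card R := by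
          apply Nat.mul_le_mul_right
          have hle : A.map (QuotientGroup.mk' R) ≤ closure (T : Set (G ⧸ R)) :=
            Subgroup.map_comap_le _ _
          exact Nat.card_le_card_of_injective (Subgroup.inclusion hle)
            (Subgroup.inclusion_injective hle)
      _ ≤ _ := Nat.mul_le_mul_right _ hclos
  obtain ⟨d, rfl⟩ : ∃ d, b = m + d := ⟨b - m, by omega⟩
  have hdm : m + d - m = d := by omega
  rw [hdm] at hcardR
  calc Nat.card (commutator G) ≤ p ^ T.card * Nat.card R := hcardC
    _ ≤ p ^ ((m + 1) * (m + 1 - 1) / 2) * (p ^ d) ^ n :=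
        Nat.mul_le_mul (Nat.pow_le_pow_right hp.out.pos hTcard) hcardR
    _ = p ^ ((m + 1) * (m + 1 - 1) / 2 + d * (m + 1)) := by
        rw [hm, ← pow_mul, ← pow_add]
    _ ≤ _ := Nat.pow_le_pow_right hp.out.pos (arith m d)

end abstract


section final

/-- The main case, instantiated with the Frattini quotient. -/
theorem caseB {G : Type u} [Group G] [Finite G] {p : ℕ} [hp : Fact p.Prime] (hG : IsPGroup p G)
    (b : ℕ) (hb : ∀ x : G, (centralizer ({x} : Set G)).index ≤ p ^ b)
    (hM : ∀ M : Subgroup G, M ≠ ⊤ → ⁅M, M⁆ ≠ commutator G)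
    (hne : commutator G ≠ ⊥) :
    Nat.card (commutator G) ≤ p ^ (b * (b + 1) / 2) := by
  letI cg : CommGroup (G ⧸ frattini G) :=
    { (inferInstance : Group (G ⧸ frattini G)) with
      mul_comm := by
        intro a b
        obtain ⟨x, rfl⟩ := QuotientGroup.mk_surjective a
        obtain ⟨y, rfl⟩ := QuotientGroup.mk_surjective b
        have h1 : ⁅x, y⁆ ∈ frattini G := Cfsg.Agent.Lib.PGroups.Basic.commutator_le_frattini hG
          (Subgroup.commutator_mem_commutator (mem_top x) (mem_top y))
        exact (commute_mk_iff (frattini G) x y).mpr h1 }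
  letI mV : Module (ZMod p) (Additive (G ⧸ frattini G)) := AddCommGroup.zmodModule (by
    intro x
    obtain ⟨g, rfl⟩ := QuotientGroup.mk_surjective (Additive.toMul x)
    show Additive.ofMul ((g : G ⧸ frattini G) ^ p) = 0
    rw [← QuotientGroup.mk_pow, (QuotientGroup.eq_one_iff _).mpr
      (Cfsg.Agent.Lib.PGroups.Basic.pow_mem_frattini hG g)]
    rfl)
  let π : G → Additive (G ⧸ frattini G) := fun g => Additive.ofMul (g : G ⧸ frattini G)
  have hπ : ∀ g h, π (g * h) = π g + π h := fun _ _ => rfl
  have hsurj : Function.Surjective π := by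
    intro v
    obtain ⟨g, hg⟩ := QuotientGroup.mk_surjective (Additive.toMul v)
    exact ⟨g, hg⟩
  have hker : ∀ g, π g = 0 ↔ g ∈ frattini G := fun g => QuotientGroup.eq_one_iff g
  exact caseB_aux hG b hb hπ hsurj hker hM hne

/-- Vaughan-Lee's theorem. -/
theorem main {p : ℕ} [hp : Fact p.Prime] : ∀ (n : ℕ) (G : Type u) [Group G] [Finite G],
    Nat.card G = n → IsPGroup p G → ∀ b : ℕ,
    (∀ x : G, (centralizer ({x} : Set G)).index ≤ p ^ b) →
    Nat.card (commutator G) ≤ p ^ (b * (b + 1) / 2) := by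
  intro n
  induction n using Nat.strong_induction_on with
  | _ n ih =>
    intro G _ _ hn hG b hb
    by_cases hne : commutator G = ⊥
    · rw [hne, Subgroup.card_bot]
      exact Nat.one_le_pow _ _ hp.out.pos
    by_cases hM : ∃ M : Subgroup G, M ≠ ⊤ ∧ ⁅M, M⁆ = commutator G
    · obtain ⟨M, hMtop, hMeq⟩ := hM
      have hlt : Nat.card M < n := by
        rw [← hn]
        have h' : (M : Set G) ⊂ (⊤ : Subgroup G) := SetLike.coe_ssubset_coe.mpr (lt_top_iff_ne_top.mpr hMtop)
        have := Set.ncard_lt_ncard h' (Set.toFinite _)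
        rw [← Nat.card_coe_set_eq, ← Nat.card_coe_set_eq] at this
        simpa using this
      have h1 := ih _ hlt M rfl (hG.to_subgroup M) b (by
        intro y
        have h2 : (centralizer ({y} : Set M)) = (centralizer ({(y : G)} : Set G)).subgroupOf M := by
          ext z
          simp only [Subgroup.mem_centralizer_iff, Set.mem_singleton_iff, forall_eq,
            Subgroup.mem_subgroupOf]
          constructor
          · intro h
            exact congrArg Subtype.val h
          · intro h
            exact Subtype.ext h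
        rw [h2]
        refine le_trans ?_ (hb y)
        have h4 := Subgroup.relIndex_le_of_le_right (H := centralizer ({(y : G)} : Set G))
          (le_top : M ≤ ⊤) (ProductBound.relIndex_pos _ _).ne'
        rwa [Subgroup.relIndex_top_right] at h4)
      have h3 : Nat.card (commutator M) = Nat.card (commutator G) := by
        rw [← hMeq, ← Subgroup.map_subtype_commutator, Subgroup.card_map_of_injective M.subtype_injective]
      rwa [h3] at h1
    · push_neg at hM
      exact caseB hG b hb hM hne

end final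

end Cfsg.Agent.Lib.VaughanLee.Main
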